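/- The generators of the Thompson group are products of root elements of `E₈(3)`. -/
import Cfsg.Agent.SPOR.ThE8.Data
import Cfsg.Agent.SPOR.Th.Mat
set_option autoImplicit false
set_option maxRecDepth 100000
set_option Elab.async false
namespace CL.ThE8
open CL.K CL.PM CL.Chev Cfsg.Lie
open scoped Matrix

/-- rows of a product of transposed root elements times the matrix with rows `B` -/
noncomputable def evX (Q : ℕ) (B : ℕ → ℕ) (v : List (ℕ × ℕ)) : ℕ → ℕ :=
  List.rec (motive := fun _ => ℕ → ℕ) B
    (fun y _ ih c => rowS 3 248 683 11 Q ih c (xL certE8 240 8 y.1 y.2 c)) v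

/-- a root element in the coordinates `Fin 248` -/
def XM (y : ℕ × ℕ) : Matrix (Fin 248) (Fin 248) (ZMod 3) :=
  (xR chevE8 (ZMod 3) y.1 (y.2 : ZMod 3)).reindex eI eI

theorem evX_row {B : ℕ → ℕ} {A : Matrix (Fin 248) (Fin 248) (ZMod 3)} (hB : ∀ c < 248, B c = rowC 20 A c)
    (v : List (ℕ × ℕ)) (hv : ∀ y ∈ v, y.1 < 240) :
    ∀ c < 248, evX (repC 20 248 511) B v c = rowC 20 ((v.map fun y => (XM y)ᵀ).prod * A) c := by
  induction v with
  | nil => simpa [evX] using hB
  | cons y v ih =>
    intro c hc
    have e : XM y = 1 + spM 3 248 (xL certE8 240 8 y.1 y.2) := xR_eq ⟨y.1, hv y List.mem_cons_self⟩ y.2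
    rw [List.map_cons, List.prod_cons, mul_assoc, e]
    exact rowS_eq Th.ok _ (ih fun z hz => hv z (List.mem_cons_of_mem _ hz)) _ hc
      (by have := xL_le certE8 240 8 y.1 y.2 c hc; omega)

/-- the basis change -/
noncomputable def TM : Matrix (Fin 248) (Fin 248) (ZMod 3) := dec 3 248 20 1048575 cT
/-- its inverse -/
noncomputable def TI : Matrix (Fin 248) (Fin 248) (ZMod 3) := dec 3 248 20 1048575 cI

theorem code_TM : code 20 TM = cT := Th.ok.code_dec' (by decide) (by decide) (by decide +kernel)
theorem code_TI : code 20 TI = cI := Th.ok.code_dec' (by decide) (by decide) (by decide +kernel)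

theorem TM_TI : TM * TI = 1 := Th.ok.code_injective (by
  rw [← Th.ok.mulC_code, code_TM, code_TI, Th.ok.code_one]
  exact Nat.eq_of_beq_eq_true (by decide +kernel))

/-- check that generator `a` is the word `v` -/
noncomputable def chk (a : ℕ) (v : List (ℕ × ℕ)) : Bool :=
  force (repC 20 248 511) fun Q => force (Nat.pred (Nat.pow 2 4960)) fun RM => force cT fun T =>
    force (mulC 3 248 20 4960 (repC 4960 248 1048575) RM 683 11 (repC 20 61504 511) T
      (Th.cs.getD a (oneC 248 20))) fun P => v.all (fun y => Nat.blt y.1 240) &&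
        K.allLt (fun c => Nat.beq (force c (evX Q (fld 4960 RM T) v)) (fld 4960 RM P c)) 248

theorem of_chk {a : ℕ} {v : List (ℕ × ℕ)} (h : chk a v = true) :
    (∀ y ∈ v, y.1 < 240) ∧ (v.map fun y => (XM y)ᵀ).prod * TM = TM * (Th.gM a).val := by
  simp only [chk, force_eq, Bool.and_eq_true, List.all_eq_true, Nat.blt_eq, K.allLt_iff] at h
  refine ⟨h.1, rowC_inj Th.ok fun c hc => ?_⟩
  have hA : Th.cs.getD a (oneC 248 20) = code 20 (mats 3 248 20 1048575 Th.cs a) := by
    rw [mats, List.getD_eq_getElem?_getD]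
    cases e : Th.cs[a]? with
    | none => exact Th.ok.code_one.symm
    | some d =>
      exact (Th.ok.code_dec' (by decide) (by decide) (List.all_eq_true.1 Th.cs_ok d (List.mem_of_getElem? e))).symm
  have h2 := Nat.eq_of_beq_eq_true (h.2 c hc)
  rw [hA, ← code_TM, evX_row (fun c hc => fld_row Th.ok TM hc) v h.1 c hc, Th.ok.mulC_code, fld_row Th.ok _ hc] at h2
  exact h2

theorem chk0 : chk 0 w0 = true := by decide +kernel
theorem chk1 : chk 1 w1 = true := by decide +kernel
theorem chk2 : chk 2 w2 = true := by decide +kernel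
theorem chk3 : chk 3 w3 = true := by decide +kernel
theorem chk4 : chk 4 w4 = true := by decide +kernel
theorem chk5 : chk 5 w5 = true := by decide +kernel
theorem chk7 : chk 7 w7 = true := by decide +kernel
theorem chk9 : chk 9 w9 = true := by decide +kernel

end CL.ThE8
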