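/- The Thompson group embeds in `E₈(3)`. -/
import Cfsg.Agent.SPOR.ThE8.Chk
import Cfsg.Agent.SPOR.ThG
set_option autoImplicit false
namespace CL.ThE8
open CL.K CL.PM CL.Chev CL.CE Cfsg.Lie Cfsg
open scoped Matrix

theorem inv_comm {n p : ℕ} {A B : Matrix (Fin n) (Fin n) (ZMod p)} (h : A * B = 1) : B * A = 1 :=
  mul_eq_one_comm.1 h

theorem TI_TM : TI * TM = 1 := inv_comm TM_TI

/-- the contragredient representation in the Chevalley basis -/
noncomputable def dual : GL (Fin 248) (ZMod 3) →* Matrix chevE8.Idx chevE8.Idx (ZMod 3) where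
  toFun x := ((TM * (x⁻¹).val * TI)ᵀ).submatrix eI eI
  map_one' := by simp [TM_TI]
  map_mul' x y := by
    rw [Matrix.submatrix_mul_equiv, ← Matrix.transpose_mul, mul_inv_rev, Units.val_mul]
    simp only [mul_assoc]
    rw [← mul_assoc TI TM, TI_TM, one_mul]

theorem dual_inj : Function.Injective dual := (injective_iff_map_eq_one _).2 fun x hx => by
  have h1 : (TM * (x⁻¹).val * TI)ᵀ = 1 := by
    have := congrArg (fun A : Matrix chevE8.Idx chevE8.Idx (ZMod 3) => A.submatrix eI.symm eI.symm) hx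
    simpa [dual] using this
  have h2 : TI * (TM * (x⁻¹).val * TI) * TM = 1 := by
    rw [Matrix.transpose_eq_one.1 h1, mul_one, TI_TM]
  simp only [← mul_assoc, TI_TM, one_mul] at h2
  rw [mul_assoc, TI_TM, mul_one] at h2
  exact inv_eq_one.1 (Units.ext h2)

theorem prod_mem (v : List (ℕ × ℕ)) (hv : ∀ y ∈ v, y.1 < 240) : ∃ p ∈ chevE8.group (ZMod 3),
    p.val = ((v.map fun y => (XM y)ᵀ).prodᵀ).submatrix eI eI := by
  induction v with
  | nil => exact ⟨1, one_mem _, by simp⟩
  | cons y v ih =>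
    obtain ⟨p, hp, e⟩ := ih fun z hz => hv z (List.mem_cons_of_mem _ hz)
    let r : Rt chevE8 := ⟨y.1, hv y List.mem_cons_self⟩
    refine ⟨p * xg r (y.2 : ZMod 3), mul_mem hp (Subgroup.subset_closure ⟨r, y.2, ?_⟩), ?_⟩
    · rw [xg_val, xR_fin, xMat_eq_xMatR]
    · rw [List.map_cons, List.prod_cons, Matrix.transpose_mul, Matrix.transpose_transpose,
        ← Matrix.submatrix_mul_equiv _ _ _ eI, ← e, Units.val_mul, xg_val]
      simp [XM, r]

theorem mem_of_chk {a : ℕ} {v : List (ℕ × ℕ)} (h : chk a v = true) :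
    dual.toHomUnits (Th.gM a) ∈ chevE8.group (ZMod 3) := by
  obtain ⟨hv, e⟩ := of_chk h
  obtain ⟨p, hp, e'⟩ := prod_mem v hv
  rw [← inv_mem_iff, ← map_inv]
  convert hp using 1
  refine Units.ext ?_
  rw [e', MonoidHom.coe_toHomUnits]
  change ((TM * ((Th.gM a)⁻¹⁻¹).val * TI)ᵀ).submatrix eI eI = _
  rw [inv_inv, ← e, mul_assoc, TM_TI, mul_one]

theorem exists_emb : ∃ f : Spor.Th →* chevE8.group (ZMod 3), Function.Injective f := by
  have hm : ∀ x, (dual.toHomUnits.comp ThG.ρ) x ∈ chevE8.group (ZMod 3) := fun x => by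
    have : gen ThG.g ThG.gw ≤ (chevE8.group (ZMod 3)).comap (dual.toHomUnits.comp ThG.ρ) := by
      have e : ∀ a < 11, ThG.ρ (ev ThG.g [a]) = Th.gM a := fun a ha => by
        rw [ev_cons, ev_nil, mul_one, ThG.ρ_apply a ha, ThG.gM_eq, subst]
        interval_cases a <;> simp [ThG.mw, ev]
      simp only [gen_le_iff, ThG.gw, List.forall_mem_cons, Subgroup.mem_comap, MonoidHom.comp_apply]
      rw [e 0 (by decide), e 1 (by decide), e 2 (by decide), e 3 (by decide), e 4 (by decide), e 5 (by decide),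
        e 7 (by decide), e 9 (by decide)]
      exact ⟨mem_of_chk chk0, mem_of_chk chk1, mem_of_chk chk2, mem_of_chk chk3, mem_of_chk chk4,
        mem_of_chk chk5, mem_of_chk chk7, mem_of_chk chk9, by simp⟩
    exact this (ThG.gen_top ▸ Subgroup.mem_top x)
  refine ⟨MonoidHom.codRestrict _ _ hm, (MonoidHom.injective_codRestrict _ _ _).2 fun x y h =>
    ThG.faithful.2 (dual_inj ?_)⟩
  rw [← dual.coe_toHomUnits (ThG.ρ x), ← dual.coe_toHomUnits (ThG.ρ y)]
  rw [MonoidHom.comp_apply, MonoidHom.comp_apply] at h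
  rw [h]

end CL.ThE8
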