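/-
Multiplication of a matrix with packed rows by a sparse matrix; the root elements of `E₈(3)` as sparse matrices.
-/
import Cfsg.Agent.SPOR.Th.MatPres
import Cfsg.Agent.CHEV.CoreTor
import Cfsg.Agent.CHEV.CoreE8

set_option autoImplicit false

namespace CL.ThE8

open Finset CL.K CL.PM CL.Chev Cfsg.Lie
open scoped Matrix

/-- sum over a list -/
noncomputable def lsum (f : ℕ × ℕ → ℕ) (L : List (ℕ × ℕ)) : ℕ :=
  List.rec (motive := fun _ => ℕ) 0 (fun a _ ih => Nat.add (f a) ih) L

theorem lsum_eq (f : ℕ × ℕ → ℕ) (L : List (ℕ × ℕ)) : lsum f L = (L.map f).sum := by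
  induction L with
  | nil => rfl
  | cons a t ih => rw [List.map_cons, List.sum_cons, ← ih]; rfl

/-- the matrix with the given sparse columns -/
def spM (p n : ℕ) (L : ℕ → List (ℕ × ℕ)) : Matrix (Fin n) (Fin n) (ZMod p) :=
  Matrix.of fun u c => ((L c).map fun y => if y.1 = u.val then (y.2 : ZMod p) else 0).sum

/-- row `c` of `(1 + spM L)ᵀ * A` from the rows `R` of `A` and `l = L c` -/
noncomputable def rowS (p n m s Q : ℕ) (R : ℕ → ℕ) (c : ℕ) (l : List (ℕ × ℕ)) : ℕ :=
  List.rec (motive := fun _ => ℕ) (R c) (fun _ _ _ => force (Nat.add (R c)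
    (lsum (fun y => bif Nat.blt y.1 n then Nat.mul y.2 (force y.1 R) else 0) l)) (red p m s Q)) l

/-- a packed row -/
def rowC (w : ℕ) {p n : ℕ} (A : Matrix (Fin n) (Fin n) (ZMod p)) (c : ℕ) : ℕ := pack w n fun j => entry A c j

variable {p n w M W CM RM m s QM X : ℕ}

theorem fld_row (h : OK p n w M W CM RM m s QM X) (A : Matrix (Fin n) (Fin n) (ZMod p)) {c : ℕ} (hc : c < n) :
    fld W RM (code w A) c = rowC w A c := by
  rw [h.hRM, h.hW, row_eq h.hw, ← h.hM]
  exact pack_congr fun j hj => h.fld_code A hc hj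

theorem rowC_inj (h : OK p n w M W CM RM m s QM X) {A B : Matrix (Fin n) (Fin n) (ZMod p)}
    (e : ∀ c < n, rowC w A c = rowC w B c) : A = B := by
  have : NeZero p := ⟨by have := h.hp; omega⟩
  ext i j
  apply ZMod.val_injective
  have := congrArg (fun x => fld w (2 ^ w - 1) x j) (e i i.2)
  simp only [rowC] at this
  rwa [fld_pack (fun _ _ => (entry_lt h.hp A _ _).trans_le h.hX4) j.2,
    fld_pack (fun _ _ => (entry_lt h.hp B _ _).trans_le h.hX4) j.2, entry_fin, entry_fin] at this

theorem red_row (h : OK p n w M W CM RM m s QM X) {N : ℕ} {f : ℕ → ℕ} (hf : ∀ t < N, f t ≤ X) :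
    red p m s (repC w N (2 ^ (w - s) - 1)) (pack w N f) = pack w N (fun t => f t % p) := by
  unfold red
  have e1 : Nat.mul (pack w N f) m = pack w N (fun t => f t * m) := pack_mul_const _ _ _ _
  rw [e1, repC_eq h.hw, shift_and_pack h.hw h.hs
    (fun t ht => lt_of_le_of_lt (Nat.mul_le_mul_right m (hf t ht)) h.hX3)]
  change _ - _ * p = _
  rw [pack_mul_const]
  apply Nat.sub_eq_of_eq_add
  rw [pack_add]
  refine pack_congr fun t ht => ?_
  rw [h.hdiv _ (hf t ht), mul_comm, Nat.mod_add_div]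

theorem lsum_rows (A : Matrix (Fin n) (Fin n) (ZMod p)) {R : ℕ → ℕ} (hR : ∀ c < n, R c = rowC w A c)
    (l : List (ℕ × ℕ)) : lsum (fun y => bif Nat.blt y.1 n then Nat.mul y.2 (force y.1 R) else 0) l =
      pack w n fun j => (l.map fun y => y.2 * entry Aᵀ j y.1).sum := by
  rw [lsum_eq]
  induction l with
  | nil => simp [pack]
  | cons y l ih =>
    rw [List.map_cons, List.sum_cons, ih]
    simp only [List.map_cons, List.sum_cons, ← pack_add, cond_blt, force_eq]
    congr 1
    split_ifs with hy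
    · rw [hR _ hy, rowC]
      change HMul.hMul (α := ℕ) (β := ℕ) _ _ = _
      rw [mul_comm, pack_mul_const]
      exact pack_congr fun j hj => by simp [entry, hy, hj, mul_comm]
    · simp [pack, entry, hy]

theorem cast_lsum [NeZero p] (A : Matrix (Fin n) (Fin n) (ZMod p)) (i : Fin n) (L : List (ℕ × ℕ)) :
    (((L.map fun y => y.2 * entry A i y.1).sum : ℕ) : ZMod p) =
      ∑ k : Fin n, A i k * (L.map fun y => if y.1 = k.val then (y.2 : ZMod p) else 0).sum := by
  induction L with
  | nil => simp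
  | cons a t ih =>
    simp only [List.map_cons, List.sum_cons, Nat.cast_add, ih, mul_add, sum_add_distrib, add_left_inj]
    by_cases ha : a.1 < n
    · have e := entry_fin A i ⟨_, ha⟩
      simp only at e
      rw [sum_eq_single ⟨_, ha⟩ (fun k _ hk => by rw [if_neg fun e => hk (Fin.ext e.symm), mul_zero])
        (fun h => absurd (mem_univ _) h), e]
      simp [mul_comm]
    · rw [sum_eq_zero fun k _ => by rw [if_neg fun e : a.1 = k.val => ha (e ▸ k.2), mul_zero]]
      simp [entry, ha]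

theorem rowS_eq (h : OK p n w M W CM RM m s QM X) (A : Matrix (Fin n) (Fin n) (ZMod p)) {R : ℕ → ℕ}
    (hR : ∀ c < n, R c = rowC w A c) (L : ℕ → List (ℕ × ℕ)) {c : ℕ} (hc : c < n)
    (hL : (1 + ((L c).map Prod.snd).sum) * (p - 1) ≤ X) :
    rowS p n m s (repC w n (2 ^ (w - s) - 1)) R c (L c) = rowC w ((1 + spM p n L)ᵀ * A) c := by
  have : NeZero p := ⟨by have := h.hp; omega⟩
  have e : rowC w ((1 + spM p n L)ᵀ * A) c =
      pack w n fun j => (entry A c j + ((L c).map fun y => y.2 * entry Aᵀ j y.1).sum) % p := by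
    refine pack_congr fun j hj => ?_
    have e1 := entry_fin ((1 + spM p n L)ᵀ * A) ⟨_, hc⟩ ⟨_, hj⟩
    have e2 := entry_fin A ⟨_, hc⟩ ⟨_, hj⟩
    have e3 := cast_lsum Aᵀ ⟨_, hj⟩ (L c)
    simp only at e1 e2 e3
    rw [e1, ← ZMod.val_natCast, Nat.cast_add, e2, ZMod.natCast_zmod_val, Matrix.transpose_add, add_mul,
      Matrix.transpose_one, one_mul, Matrix.add_apply, Matrix.mul_apply, e3]
    simp [spM, mul_comm]
  rw [e]
  have hp := fun (A : Matrix (Fin n) (Fin n) (ZMod p)) i j => Nat.le_sub_one_of_lt (entry_lt h.hp A i j)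
  generalize L c = l at hL
  cases l with
  | nil =>
    refine (hR c hc).trans (pack_congr fun j _ => ?_)
    simp [Nat.mod_eq_of_lt (entry_lt h.hp A _ _)]
  | cons y l =>
    refine (force_eq _ _).trans ?_
    rw [lsum_rows A hR, hR c hc]
    change red p m s _ (pack _ _ _ + _) = _
    rw [pack_add, red_row h fun t _ => le_trans ?_ hL]
    rw [add_mul, one_mul, ← List.sum_map_mul_right]
    exact Nat.add_le_add (hp _ _ _) (List.sum_le_sum fun y _ => Nat.mul_le_mul_left _ (hp _ _ _))

/-- the off-diagonal entries of column `c` of `x_r(t)` modulo 3 -/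
def xL (C : Cert) (n l r t c : ℕ) : List (ℕ × ℕ) :=
  (C.xcol n l r c).tail.map fun y => (y.1, ((y.2.2 * (t : ℤ) ^ y.2.1) % 3).toNat)

theorem xcol_head (C : Cert) (n l r c : ℕ) (hc : c < n + l) :
    C.xcol n l r c = (c, 0, 1) :: (C.xcol n l r c).tail ∧ (C.xcol n l r c).tail.length ≤ l + 3 := by
  simp only [Cert.xcol, cond_blt, cond_beq]
  split_ifs <;> simp

theorem xL_le (C : Cert) (n l r t c : ℕ) (hc : c < n + l) : ((xL C n l r t c).map Prod.snd).sum ≤ (l + 3) * 2 := by
  refine le_trans (List.sum_le_card_nsmul _ 2 fun x hx => ?_) ?_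
  · simp only [xL, List.map_map, List.mem_map, Function.comp] at hx
    obtain ⟨y, -, rfl⟩ := hx
    omega
  · simp only [xL, List.length_map, smul_eq_mul]
    exact Nat.mul_le_mul_right _ (xcol_head C n l r c hc).2

/-- the coordinates of `E₈` -/
def eI : chevE8.Idx ≃ Fin 248 := (Equiv.sumComm _ _).trans finSumFinEquiv

theorem eI_val (c : chevE8.Idx) : (eI c : ℕ) = enc chevE8 c := by
  rcases c with a | a <;> rfl

theorem xR_eq [g : Good chevE8] (r : Rt chevE8) (t : ℕ) :
    (xR chevE8 (ZMod 3) r (t : ZMod 3)).reindex eI eI = 1 + spM 3 248 (xL g.C 240 8 r t) := by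
  ext u c
  obtain ⟨u, rfl⟩ := eI.surjective u
  obtain ⟨c, rfl⟩ := eI.surjective c
  have hc := enc_lt c
  rw [Matrix.reindex_apply, Matrix.submatrix_apply, eI.symm_apply_apply, eI.symm_apply_apply,
    ← mulVec_bas_apply (xR chevE8 (ZMod 3) r t),
    xR_bas_xcol, (xcol_head _ _ _ _ _ hc).1, Matrix.add_apply, spM, Matrix.of_apply, eI_val, eI_val, evCol,
    List.map_cons, List.sum_cons, Pi.add_apply, xL, List.map_map]
  congr 1
  · simp [bas, Matrix.one_apply, enc_injective.eq_iff]
  · change _ = (List.map _ (g.C.xcol chevE8.nroots chevE8.rank r (enc chevE8 c)).tail).sum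
    induction (g.C.xcol chevE8.nroots chevE8.rank r (enc chevE8 c)).tail with
    | nil => rfl
    | cons y l ih =>
      rw [List.map_cons, List.sum_cons, Pi.add_apply, ih, List.map_cons, List.sum_cons]
      congr 1
      have e : (((y.2.2 * (t : ℤ) ^ y.2.1) % 3).toNat : ZMod 3) = (y.2.2 : ZMod 3) * (t : ZMod 3) ^ y.2.1 := by
        rw [← Int.cast_natCast, Int.toNat_of_nonneg (Int.emod_nonneg _ (by norm_num))]
        have := ZMod.intCast_mod (y.2.2 * (t : ℤ) ^ y.2.1) 3
        simpa using this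
      simp only [Function.comp, e, Pi.smul_apply, bas, smul_eq_mul, eq_comm (a := y.1)]
      split_ifs <;> simp

end CL.ThE8
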